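import Mathlib
import Cfsg.Agent.Lib.Core.Product
import Cfsg.Agent.Lib.Core.Subnormal

/-!
# Permutable subgroups and Kegel's lemma.
-/

set_option autoImplicit false

namespace Cfsg.Agent.Lib.Prod

open Cfsg Subgroup Cfsg.Agent.Lib.Core
open scoped Pointwise

variable {G : Type*} [Group G]

/-- `A` permutes with `X`: elementwise form. -/
def Permutes (A X : Subgroup G) : Prop :=
  (∀ a ∈ A, ∀ x ∈ X, ∃ a' ∈ A, ∃ x' ∈ X, x * a = a' * x') ∧
    (∀ a ∈ A, ∀ x ∈ X, ∃ x' ∈ X, ∃ a' ∈ A, a * x = x' * a')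

/-- From a subgroup with carrier `A * X`, permutability. -/
theorem permutes_of_subgroup {A X S : Subgroup G} (hS : (S : Set G) = (A : Set G) * (X : Set G)) :
    Permutes A X := by
  have hA : A ≤ S := by
    intro a ha
    have : a ∈ (S : Set G) := by
      rw [hS]
      exact ⟨a, ha, 1, X.one_mem, mul_one a⟩
    exact this
  have hX : X ≤ S := by
    intro x hx
    have : x ∈ (S : Set G) := by
      rw [hS]
      exact ⟨1, A.one_mem, x, hx, one_mul x⟩
    exact this
  have key : ∀ s ∈ S, ∃ a' ∈ A, ∃ x' ∈ X, s = a' * x' := by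
    intro s hs
    have : s ∈ (S : Set G) := hs
    rw [hS] at this
    obtain ⟨a', ha', x', hx', rfl⟩ := this
    exact ⟨a', ha', x', hx', rfl⟩
  constructor
  · intro a ha x hx
    exact key _ (S.mul_mem (hX hx) (hA ha))
  · intro a ha x hx
    obtain ⟨a', ha', x', hx', h⟩ := key _ (S.inv_mem (S.mul_mem (hA ha) (hX hx)))
    refine ⟨x'⁻¹, X.inv_mem hx', a'⁻¹, A.inv_mem ha', ?_⟩
    rw [← mul_inv_rev, ← h, inv_inv]

/-- Permutability passes to joins. -/
theorem Permutes.sup {A X Y : Subgroup G} (hX : Permutes A X) (hY : Permutes A Y) : Permutes A (X ⊔ Y) := by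
  have key : ∀ t ∈ X ⊔ Y, (∀ a ∈ A, ∃ a' ∈ A, ∃ x' ∈ X ⊔ Y, t * a = a' * x') ∧
      (∀ a ∈ A, ∃ x' ∈ X ⊔ Y, ∃ a' ∈ A, a * t = x' * a') := by
    intro t ht
    rw [Subgroup.sup_eq_closure] at ht
    induction ht using Subgroup.closure_induction with
    | mem t ht =>
      rcases ht with ht | ht
      · constructor
        · intro a ha
          obtain ⟨a', ha', x', hx', h⟩ := hX.1 a ha t ht
          exact ⟨a', ha', x', Subgroup.mem_sup_left hx', h⟩
        · intro a ha
          obtain ⟨x', hx', a', ha', h⟩ := hX.2 a ha t ht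
          exact ⟨x', Subgroup.mem_sup_left hx', a', ha', h⟩
      · constructor
        · intro a ha
          obtain ⟨a', ha', x', hx', h⟩ := hY.1 a ha t ht
          exact ⟨a', ha', x', Subgroup.mem_sup_right hx', h⟩
        · intro a ha
          obtain ⟨x', hx', a', ha', h⟩ := hY.2 a ha t ht
          exact ⟨x', Subgroup.mem_sup_right hx', a', ha', h⟩
    | one =>
      constructor
      · intro a ha
        exact ⟨a, ha, 1, Subgroup.one_mem _, by simp⟩
      · intro a ha
        exact ⟨1, Subgroup.one_mem _, a, ha, by simp⟩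
    | mul s t _ _ hs ht =>
      constructor
      · intro a ha
        obtain ⟨a₁, ha₁, x₁, hx₁, h₁⟩ := ht.1 a ha
        obtain ⟨a₂, ha₂, x₂, hx₂, h₂⟩ := hs.1 a₁ ha₁
        refine ⟨a₂, ha₂, x₂ * x₁, Subgroup.mul_mem _ hx₂ hx₁, ?_⟩
        rw [mul_assoc, h₁, ← mul_assoc, h₂, mul_assoc]
      · intro a ha
        obtain ⟨x₁, hx₁, a₁, ha₁, h₁⟩ := hs.2 a ha
        obtain ⟨x₂, hx₂, a₂, ha₂, h₂⟩ := ht.2 a₁ ha₁
        refine ⟨x₁ * x₂, Subgroup.mul_mem _ hx₁ hx₂, a₂, ha₂, ?_⟩
        rw [← mul_assoc, h₁, mul_assoc, h₂, mul_assoc]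
    | inv t _ ht =>
      constructor
      · intro a ha
        obtain ⟨x₁, hx₁, a₁, ha₁, h₁⟩ := ht.2 a⁻¹ (A.inv_mem ha)
        refine ⟨a₁⁻¹, A.inv_mem ha₁, x₁⁻¹, Subgroup.inv_mem _ hx₁, ?_⟩
        have h2 : t⁻¹ * a = (a⁻¹ * t)⁻¹ := by group
        rw [h2, h₁, mul_inv_rev]
      · intro a ha
        obtain ⟨a₁, ha₁, x₁, hx₁, h₁⟩ := ht.1 a⁻¹ (A.inv_mem ha)
        refine ⟨x₁⁻¹, Subgroup.inv_mem _ hx₁, a₁⁻¹, A.inv_mem ha₁, ?_⟩
        have h2 : a * t⁻¹ = (t * a⁻¹)⁻¹ := by group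
        rw [h2, h₁, mul_inv_rev]
  constructor
  · intro a ha x hx
    exact (key x hx).1 a ha
  · intro a ha x hx
    exact (key x hx).2 a ha

/-- Permutable subgroups: the product set is a subgroup. -/
theorem Permutes.exists_subgroup {A X : Subgroup G} (h : Permutes A X) :
    ∃ S : Subgroup G, (S : Set G) = (A : Set G) * (X : Set G) := by
  refine ⟨{ carrier := (A : Set G) * (X : Set G)
            mul_mem' := ?_
            one_mem' := ⟨1, A.one_mem, 1, X.one_mem, one_mul 1⟩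
            inv_mem' := ?_ }, rfl⟩
  · rintro _ _ ⟨a, ha, x, hx, rfl⟩ ⟨b, hb, y, hy, rfl⟩
    obtain ⟨a', ha', x', hx', h1⟩ := h.1 b hb x hx
    refine ⟨a * a', A.mul_mem ha ha', x' * y, X.mul_mem hx' hy, ?_⟩
    show a * a' * (x' * y) = a * x * (b * y)
    calc a * a' * (x' * y) = a * (a' * x') * y := by group
      _ = a * (x * b) * y := by rw [h1]
      _ = a * x * (b * y) := by group
  · rintro _ ⟨a, ha, x, hx, rfl⟩
    obtain ⟨a', ha', x', hx', h1⟩ := h.1 a⁻¹ (A.inv_mem ha) x⁻¹ (X.inv_mem hx)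
    refine ⟨a', ha', x', hx', ?_⟩
    show a' * x' = (a * x)⁻¹
    rw [← h1, mul_inv_rev]

variable [Finite G]

/-- The hypothesis of Kegel's lemma. -/
def KegelHyp (A B : Subgroup G) : Prop :=
  ∀ x : G, ∃ S : Subgroup G, S ≠ ⊤ ∧ (S : Set G) = (A : Set G) * ((MulAut.conj x • B : Subgroup G) : Set G)

omit [Finite G] in
theorem KegelHyp.conj_left {A B : Subgroup G} (h : KegelHyp A B) (y : G) : KegelHyp (MulAut.conj y • A) B := by
  intro x
  obtain ⟨S, hS, hS2⟩ := h (y⁻¹ * x)
  refine ⟨MulAut.conj y • S, ?_, ?_⟩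
  · intro h3
    apply hS
    have h4 : MulAut.conj y⁻¹ • (MulAut.conj y • S) = MulAut.conj y⁻¹ • (⊤ : Subgroup G) := by rw [h3]
    rwa [conj_inv_smul_conj_smul, conj_smul_eq_self_of_normal _ ⊤] at h4
  · ext z
    simp only [SetLike.mem_coe, Set.mem_mul]
    constructor
    · intro hz
      rw [mem_conj_smul_iff] at hz
      have hz2 : y⁻¹ * z * y ∈ (S : Set G) := hz
      rw [hS2] at hz2
      obtain ⟨a, ha, b, hb, hab⟩ := hz2
      refine ⟨y * a * y⁻¹, conj_mem_conj_smul ha, y * b * y⁻¹, ?_, ?_⟩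
      · have hb' : b ∈ MulAut.conj (y⁻¹ * x) • B := hb
        rw [mem_conj_smul_iff] at hb' ⊢
        have e : x⁻¹ * (y * b * y⁻¹) * x = (y⁻¹ * x)⁻¹ * b * (y⁻¹ * x) := by group
        rw [e]
        exact hb'
      · have e : z = y * (y⁻¹ * z * y) * y⁻¹ := by group
        rw [e, ← hab]
        group
    · rintro ⟨a, ha, b, hb, rfl⟩
      rw [mem_conj_smul_iff]
      have : y⁻¹ * (a * b) * y ∈ (S : Set G) := by
        rw [hS2]
        rw [mem_conj_smul_iff] at ha hb
        refine ⟨y⁻¹ * a * y, ha, y⁻¹ * b * y, ?_, by group⟩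
        have hm : y⁻¹ * b * y ∈ MulAut.conj (y⁻¹ * x) • B := by
          rw [mem_conj_smul_iff]
          have e : (y⁻¹ * x)⁻¹ * (y⁻¹ * b * y) * (y⁻¹ * x) = x⁻¹ * b * x := by group
          rw [e]
          exact hb
        exact hm
      exact this

omit [Finite G] in
theorem KegelHyp.permutes {A B : Subgroup G} (h : KegelHyp A B) (x : G) : Permutes A (MulAut.conj x • B) := by
  obtain ⟨S, -, hS⟩ := h x
  exact permutes_of_subgroup hS

/-- The kernel of the proof of Kegel's lemma: under maximality, `A` normalizes `B`. -/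
theorem kegel_step {A B : Subgroup G} (h : KegelHyp A B)
    (hno : ¬ ∃ N : Subgroup G, N.Normal ∧ N ≠ ⊤ ∧ (A ≤ N ∨ B ≤ N))
    (ih : ∀ T : Subgroup G, B < T → KegelHyp A T → ∃ N : Subgroup G, N.Normal ∧ N ≠ ⊤ ∧ (A ≤ N ∨ T ≤ N)) :
    A ≤ normalizer (B : Set G) := by
  intro a ha
  by_contra hcon
  have hne : MulAut.conj a • B ≠ B := fun h2 => hcon (mem_normalizer_of_conj_smul_eq h2)
  obtain ⟨T, hT⟩ : ∃ T, T = B ⊔ MulAut.conj a • B := ⟨_, rfl⟩
  have hBT : B < T := by
    rw [hT]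
    refine lt_of_le_of_ne le_sup_left ?_
    intro h2
    apply hne
    apply Subgroup.eq_of_le_of_card_ge
    · exact le_sup_right.trans_eq h2.symm
    · rw [card_conj_smul]
  -- `A` permutes with all conjugates of `T`
  have hper : ∀ x : G, Permutes A (MulAut.conj x • T) := by
    intro x
    rw [hT, Subgroup.smul_sup, conj_smul_conj_smul]
    exact (h.permutes x).sup (h.permutes (x * a))
  -- `T` fails the hypothesis
  have hnotK : ¬ KegelHyp A T := by
    intro hK
    obtain ⟨N, hN, hNt, hN2⟩ := ih T hBT hK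
    apply hno
    refine ⟨N, hN, hNt, ?_⟩
    rcases hN2 with h3 | h3
    · exact Or.inl h3
    · exact Or.inr (hBT.le.trans h3)
  unfold KegelHyp at hnotK
  push Not at hnotK
  obtain ⟨x, hx⟩ := hnotK
  obtain ⟨S, hS⟩ := (hper x).exists_subgroup
  have hStop : S = ⊤ := by
    by_contra h3
    exact hx S h3 hS
  -- hence `A * T = G`
  have hfact : ∀ g : G, ∃ y ∈ A, ∃ z ∈ MulAut.conj x • T, g = y * z := by
    intro g
    have : g ∈ (S : Set G) := by
      rw [hStop]
      exact Subgroup.mem_top g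
    rw [hS] at this
    obtain ⟨y, hy, z, hz, rfl⟩ := this
    exact ⟨y, hy, z, hz, rfl⟩
  have hfact2 : ∀ g : G, ∃ y ∈ A, ∃ z ∈ T, g = y * z := by
    have h4 := mul_of_conj hfact 1 x⁻¹
    rw [conj_one_smul, conj_inv_smul_conj_smul] at h4
    exact h4
  -- but `A`, `B`, `a • B` lie in the proper subgroup `A * B`
  obtain ⟨S₀, hS₀, hS₀2⟩ := h 1
  rw [conj_one_smul] at hS₀2
  have hAS : A ≤ S₀ := by
    intro y hy
    have : y ∈ (S₀ : Set G) := by
      rw [hS₀2]
      exact ⟨y, hy, 1, B.one_mem, mul_one y⟩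
    exact this
  have hBS : B ≤ S₀ := by
    intro y hy
    have : y ∈ (S₀ : Set G) := by
      rw [hS₀2]
      exact ⟨1, A.one_mem, y, hy, one_mul y⟩
    exact this
  have hTS : T ≤ S₀ := by
    rw [hT]
    refine sup_le hBS ?_
    intro y hy
    rw [mem_conj_smul_iff] at hy
    have := S₀.mul_mem (S₀.mul_mem (hAS ha) (hBS hy)) (S₀.inv_mem (hAS ha))
    have e : a * (a⁻¹ * y * a) * a⁻¹ = y := by group
    rwa [e] at this
  apply hS₀
  rw [eq_top_iff]
  intro g _
  obtain ⟨y, hy, z, hz, rfl⟩ := hfact2 g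
  exact S₀.mul_mem (hAS hy) (hTS hz)

/-- **Kegel's lemma.** -/
theorem kegel_lemma : ∀ (n : ℕ) (A B : Subgroup G), Nat.card G - Nat.card B = n → KegelHyp A B →
    ∃ N : Subgroup G, N.Normal ∧ N ≠ ⊤ ∧ (A ≤ N ∨ B ≤ N) := by
  intro n
  induction n using Nat.strong_induction_on with
  | _ n ih =>
    intro A B hn h
    by_contra hno
    -- all conjugates of `A` normalize `B`
    have hall : ∀ y : G, MulAut.conj y • A ≤ normalizer (B : Set G) := by
      intro y
      apply kegel_step (h.conj_left y)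
      · rintro ⟨N, hN, hNt, hN2⟩
        apply hno
        refine ⟨N, hN, hNt, ?_⟩
        rcases hN2 with h3 | h3
        · left
          have h4 := conj_smul_le_conj_smul (g := y⁻¹) h3
          rwa [conj_inv_smul_conj_smul, conj_smul_eq_self_of_normal _ N] at h4
        · exact Or.inr h3
      · intro T hT hK
        have hlt : Nat.card G - Nat.card T < n := by
          have h5 : Nat.card B < Nat.card T := Cfsg.Agent.Lib.Core.card_lt_card_of_lt hT
          have h6 : Nat.card T ≤ Nat.card G := Subgroup.card_le_card_group T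
          omega
        exact ih _ hlt (MulAut.conj y • A) T rfl hK
    -- hence `B` is normal
    have hAtop : Subgroup.normalClosure (A : Set G) = ⊤ := by
      by_contra h3
      apply hno
      exact ⟨_, Subgroup.normalClosure_normal, h3, Or.inl Subgroup.le_normalClosure⟩
    have hN : normalizer (B : Set G) = ⊤ := by
      rw [eq_top_iff, ← hAtop, Subgroup.normalClosure, Subgroup.closure_le]
      intro x hx
      obtain ⟨a, ha, hconj⟩ := Group.mem_conjugatesOfSet_iff.mp hx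
      obtain ⟨c, rfl⟩ := isConj_iff.mp hconj
      exact hall c (conj_mem_conj_smul ha)
    have hBn : B.Normal := Subgroup.normalizer_eq_top_iff.mp hN
    by_cases hBt : B = ⊤
    · obtain ⟨S, hS, hS2⟩ := h 1
      apply hS
      rw [eq_top_iff]
      intro g _
      have : g ∈ (S : Set G) := by
        rw [hS2, hBt]
        exact ⟨1, A.one_mem, g, by rw [conj_smul_eq_self_of_normal _ ⊤]; exact Subgroup.mem_top g, one_mul g⟩
      exact this
    · exact hno ⟨B, hBn, hBt, Or.inr le_rfl⟩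

end Cfsg.Agent.Lib.Prod
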