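import Mathlib

/-!
# Itô's theorem: a product of two abelian subgroups is metabelian
-/

set_option autoImplicit false

namespace Cfsg.Agent.Lib.Prod

open scoped commutatorElement

variable {G : Type*} [Group G]

/-- the commutator with the convention of the classical proof -/
def itoK (x y : G) : G := x⁻¹ * y⁻¹ * x * y

/-- The set of commutators `x⁻¹ y⁻¹ x y` with `x ∈ A`, `y ∈ B`. -/
def itoT (A B : Subgroup G) : Set G := {c | ∃ a ∈ A, ∃ b ∈ B, c = itoK a b}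

section
variable {A B : Subgroup G} (hAc : ∀ x ∈ A, ∀ y ∈ A, x * y = y * x)
  (hBc : ∀ x ∈ B, ∀ y ∈ B, x * y = y * x) (hAB : ∀ g : G, ∃ a ∈ A, ∃ b ∈ B, g = a * b)

include hAB in
theorem ito_fac' (g : G) : ∃ b ∈ B, ∃ a ∈ A, g = b * a := by
  obtain ⟨a, ha, b, hb, h⟩ := hAB g⁻¹
  refine ⟨b⁻¹, B.inv_mem hb, a⁻¹, A.inv_mem ha, ?_⟩
  have := congrArg (·⁻¹) h
  simpa using this

include hAc in
/-- `[a, a₂ b₂] = [a, b₂]` -/
theorem itoK_mul_left {a a₂ b₂ : G} (ha : a ∈ A) (ha₂ : a₂ ∈ A) : itoK a (a₂ * b₂) = itoK a b₂ := by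
  unfold itoK
  have h := hAc a ha a₂ ha₂
  calc a⁻¹ * (a₂ * b₂)⁻¹ * a * (a₂ * b₂) = a⁻¹ * b₂⁻¹ * a₂⁻¹ * (a * a₂) * b₂ := by group
    _ = a⁻¹ * b₂⁻¹ * a₂⁻¹ * (a₂ * a) * b₂ := by rw [h]
    _ = a⁻¹ * b₂⁻¹ * a * b₂ := by group

include hBc in
/-- `[b₃ a₃, b₂] = [a₃, b₂]` -/
theorem itoK_mul_right {a₃ b₃ b₂ : G} (hb₃ : b₃ ∈ B) (hb₂ : b₂ ∈ B) : itoK (b₃ * a₃) b₂ = itoK a₃ b₂ := by
  unfold itoK
  have h := hBc b₃ hb₃ b₂⁻¹ (B.inv_mem hb₂)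
  calc (b₃ * a₃)⁻¹ * b₂⁻¹ * (b₃ * a₃) * b₂ = a₃⁻¹ * b₃⁻¹ * (b₂⁻¹ * b₃) * a₃ * b₂ := by group
    _ = a₃⁻¹ * b₃⁻¹ * (b₃ * b₂⁻¹) * a₃ * b₂ := by rw [h]
    _ = a₃⁻¹ * b₂⁻¹ * a₃ * b₂ := by group

theorem itoK_conj (x y g : G) : g⁻¹ * itoK x y * g = itoK (g⁻¹ * x * g) (g⁻¹ * y * g) := by
  unfold itoK
  group

include hAc hBc hAB in
/-- **Itô's identity**. -/
theorem ito_identity {a a₁ b b₁ : G} (ha : a ∈ A) (ha₁ : a₁ ∈ A) (hb : b ∈ B) (hb₁ : b₁ ∈ B) :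
    (a₁ * b₁)⁻¹ * itoK a b * (a₁ * b₁) = (b₁ * a₁)⁻¹ * itoK a b * (b₁ * a₁) := by
  obtain ⟨a₂, ha₂, b₂, hb₂, h2⟩ := hAB (a₁⁻¹ * b * a₁)
  obtain ⟨b₃, hb₃, a₃, ha₃, h3⟩ := ito_fac' hAB (b₁⁻¹ * a * b₁)
  have ha1 : a₁⁻¹ * a * a₁ = a := by
    have := hAc a ha a₁ ha₁
    calc a₁⁻¹ * a * a₁ = a₁⁻¹ * (a * a₁) := by group
      _ = a₁⁻¹ * (a₁ * a) := by rw [this]
      _ = a := by group
  have hb1 : ∀ {c : G}, c ∈ B → b₁⁻¹ * c * b₁ = c := by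
    intro c hc
    have := hBc c hc b₁ hb₁
    calc b₁⁻¹ * c * b₁ = b₁⁻¹ * (c * b₁) := by group
      _ = b₁⁻¹ * (b₁ * c) := by rw [this]
      _ = c := by group
  -- first order
  have h4 : a₁⁻¹ * itoK a b * a₁ = itoK a b₂ := by
    rw [itoK_conj, ha1, h2, itoK_mul_left hAc ha ha₂]
  have h5 : b₁⁻¹ * itoK a b₂ * b₁ = itoK a₃ b₂ := by
    rw [itoK_conj, h3, hb1 hb₂, itoK_mul_right hBc hb₃ hb₂]
  have h6 : b₁⁻¹ * itoK a b * b₁ = itoK a₃ b := by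
    rw [itoK_conj, h3, hb1 hb, itoK_mul_right hBc hb₃ hb]
  have h7 : a₁⁻¹ * itoK a₃ b * a₁ = itoK a₃ b₂ := by
    have ha3 : a₁⁻¹ * a₃ * a₁ = a₃ := by
      have := hAc a₃ ha₃ a₁ ha₁
      calc a₁⁻¹ * a₃ * a₁ = a₁⁻¹ * (a₃ * a₁) := by group
        _ = a₁⁻¹ * (a₁ * a₃) := by rw [this]
        _ = a₃ := by group
    rw [itoK_conj, ha3, h2, itoK_mul_left hAc ha₃ ha₂]
  calc (a₁ * b₁)⁻¹ * itoK a b * (a₁ * b₁) = b₁⁻¹ * (a₁⁻¹ * itoK a b * a₁) * b₁ := by group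
    _ = itoK a₃ b₂ := by rw [h4, h5]
    _ = a₁⁻¹ * (b₁⁻¹ * itoK a b * b₁) * a₁ := by rw [h6, h7]
    _ = (b₁ * a₁)⁻¹ * itoK a b * (b₁ * a₁) := by group

include hAc hBc hAB in
/-- conjugates of the generators are generators -/
theorem itoT_conj {c : G} (hc : c ∈ itoT A B) (g : G) : g⁻¹ * c * g ∈ itoT A B := by
  obtain ⟨a, ha, b, hb, rfl⟩ := hc
  obtain ⟨a₁, ha₁, b₁, hb₁, rfl⟩ := hAB g
  obtain ⟨a₂, ha₂, b₂, hb₂, h2⟩ := hAB (a₁⁻¹ * b * a₁)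
  obtain ⟨b₃, hb₃, a₃, ha₃, h3⟩ := ito_fac' hAB (b₁⁻¹ * a * b₁)
  have ha1 : a₁⁻¹ * a * a₁ = a := by
    have := hAc a ha a₁ ha₁
    calc a₁⁻¹ * a * a₁ = a₁⁻¹ * (a * a₁) := by group
      _ = a₁⁻¹ * (a₁ * a) := by rw [this]
      _ = a := by group
  have hb1 : ∀ {c : G}, c ∈ B → b₁⁻¹ * c * b₁ = c := by
    intro c hc
    have := hBc c hc b₁ hb₁
    calc b₁⁻¹ * c * b₁ = b₁⁻¹ * (c * b₁) := by group
      _ = b₁⁻¹ * (b₁ * c) := by rw [this]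
      _ = c := by group
  have h4 : a₁⁻¹ * itoK a b * a₁ = itoK a b₂ := by
    rw [itoK_conj, ha1, h2, itoK_mul_left hAc ha ha₂]
  have h5 : b₁⁻¹ * itoK a b₂ * b₁ = itoK a₃ b₂ := by
    rw [itoK_conj, h3, hb1 hb₂, itoK_mul_right hBc hb₃ hb₂]
  refine ⟨a₃, ha₃, b₂, hb₂, ?_⟩
  rw [← h5, ← h4]
  group

/-- the subgroup generated by the commutators -/
def itoD (A B : Subgroup G) : Subgroup G := Subgroup.closure (itoT A B)

include hAc hBc hAB in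
theorem itoD_normal : (itoD A B).Normal := by
  constructor
  intro n hn g
  unfold itoD at hn ⊢
  induction hn using Subgroup.closure_induction with
  | mem x hx =>
    apply Subgroup.subset_closure
    have := itoT_conj hAc hBc hAB hx g⁻¹
    simpa using this
  | one => simp
  | mul x y _ _ hx hy =>
    have : g * (x * y) * g⁻¹ = (g * x * g⁻¹) * (g * y * g⁻¹) := by group
    rw [this]
    exact Subgroup.mul_mem _ hx hy
  | inv x _ hx =>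
    have : g * x⁻¹ * g⁻¹ = (g * x * g⁻¹)⁻¹ := by group
    rw [this]
    exact Subgroup.inv_mem _ hx

include hAc hBc hAB in
theorem commutator_le_itoD : commutator G ≤ itoD A B := by
  have hN := itoD_normal hAc hBc hAB
  let π := QuotientGroup.mk' (itoD A B)
  have hπ : ∀ y, π y = 1 ↔ y ∈ itoD A B := fun y => QuotientGroup.eq_one_iff y
  have hcomm : ∀ a ∈ A, ∀ b ∈ B, Commute (π a) (π b) := by
    intro a ha b hb
    have h1 : itoK a b ∈ itoD A B := Subgroup.subset_closure ⟨a, ha, b, hb, rfl⟩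
    rw [← hπ] at h1
    unfold itoK at h1
    simp only [map_mul, map_inv] at h1
    rw [Commute, SemiconjBy]
    calc π a * π b = π b * π a * ((π a)⁻¹ * (π b)⁻¹ * π a * π b) := by group
      _ = π b * π a := by rw [h1, mul_one]
  have hcommA : ∀ a ∈ A, ∀ a' ∈ A, Commute (π a) (π a') := by
    intro a ha a' ha'
    rw [Commute, SemiconjBy, ← map_mul, ← map_mul, hAc a ha a' ha']
  have hcommB : ∀ b ∈ B, ∀ b' ∈ B, Commute (π b) (π b') := by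
    intro a ha a' ha'
    rw [Commute, SemiconjBy, ← map_mul, ← map_mul, hBc a ha a' ha']
  change ⁅(⊤ : Subgroup G), (⊤ : Subgroup G)⁆ ≤ _
  rw [Subgroup.commutator_le]
  intro x _ y _
  obtain ⟨a₁, ha₁, b₁, hb₁, rfl⟩ := hAB x
  obtain ⟨a₂, ha₂, b₂, hb₂, rfl⟩ := hAB y
  rw [← hπ, commutatorElement_def]
  simp only [map_mul, map_inv]
  have h5 : Commute (π a₁ * π b₁) (π a₂ * π b₂) :=
    Commute.mul_left (Commute.mul_right (hcommA _ ha₁ _ ha₂) (hcomm _ ha₁ _ hb₂))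
      (Commute.mul_right (hcomm _ ha₂ _ hb₁).symm (hcommB _ hb₁ _ hb₂))
  have : π a₁ * π b₁ * (π a₂ * π b₂) * (π a₁ * π b₁)⁻¹ * (π a₂ * π b₂)⁻¹ = 1 := by
    rw [h5.eq]
    group
  simpa [mul_assoc] using this

include hAc hBc hAB in
theorem itoD_comm : IsMulCommutative (itoD A B) := by
  apply Subgroup.isMulCommutative_closure
  rintro _ ⟨a, ha, b, hb, rfl⟩ _ ⟨a', ha', b', hb', rfl⟩
  -- `a₁ = a'⁻¹`, `b₁ = b'⁻¹`
  have h := ito_identity hAc hBc hAB (a₁ := a'⁻¹) (b₁ := b'⁻¹) ha (A.inv_mem ha') hb (B.inv_mem hb')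
  set c := itoK a b with hc
  -- `(a'⁻¹ b'⁻¹)⁻¹ c (a'⁻¹ b'⁻¹) = (b'⁻¹ a'⁻¹)⁻¹ c (b'⁻¹ a'⁻¹)`
  have h1 : b' * a' * c * a'⁻¹ * b'⁻¹ = a' * b' * c * b'⁻¹ * a'⁻¹ := by
    have := h
    simp only [mul_inv_rev, inv_inv] at this
    simpa [mul_assoc] using this
  -- so `k = a'⁻¹ b'⁻¹ a' b'` commutes with `c`
  have hk : itoK a' b' = a'⁻¹ * b'⁻¹ * a' * b' := rfl
  rw [hk]
  have h2 : (b' * a') * c * (b' * a')⁻¹ = (a' * b') * c * (a' * b')⁻¹ := by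
    simpa [mul_assoc] using h1
  calc c * (a'⁻¹ * b'⁻¹ * a' * b') = (b' * a')⁻¹ * ((b' * a') * c * (b' * a')⁻¹) * (a' * b') := by group
    _ = (b' * a')⁻¹ * ((a' * b') * c * (a' * b')⁻¹) * (a' * b') := by rw [h2]
    _ = (a'⁻¹ * b'⁻¹ * a' * b') * c := by group

end

/-- **Itô's theorem** -/
theorem derivedSeries_two_eq_bot_of_mul (A B : Subgroup G) [hA : IsMulCommutative A] [hB : IsMulCommutative B]
    (hAB : ∀ g : G, ∃ a ∈ A, ∃ b ∈ B, g = a * b) : derivedSeries G 2 = ⊥ := by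
  have hAc : ∀ x ∈ A, ∀ y ∈ A, x * y = y * x := fun x hx y hy =>
    congrArg Subtype.val (hA.is_comm.comm ⟨x, hx⟩ ⟨y, hy⟩)
  have hBc : ∀ x ∈ B, ∀ y ∈ B, x * y = y * x := fun x hx y hy =>
    congrArg Subtype.val (hB.is_comm.comm ⟨x, hx⟩ ⟨y, hy⟩)
  have h1 := commutator_le_itoD hAc hBc hAB
  have h2 := itoD_comm hAc hBc hAB
  rw [eq_bot_iff]
  change ⁅derivedSeries G 1, derivedSeries G 1⁆ ≤ ⊥
  rw [Subgroup.commutator_le]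
  intro x hx y hy
  have hx' : x ∈ itoD A B := h1 (by simpa using hx)
  have hy' : y ∈ itoD A B := h1 (by simpa using hy)
  have h3 := h2.is_comm.comm ⟨x, hx'⟩ ⟨y, hy'⟩
  rw [Subgroup.mem_bot, commutatorElement_eq_one_iff_mul_comm]
  exact congrArg Subtype.val h3

end Cfsg.Agent.Lib.Prod
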