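import Mathlib
import Cfsg.Agent.Lib.Prod.Ito
import Cfsg.Agent.Lib.Core.MinNormal
import Cfsg.Agent.Lib.Core.MinNormal2
import Cfsg.Agent.Lib.Core.Product
import Cfsg.Agent.Lib.Core.Factor
import Cfsg.Agent.Lib.Hall.Frobenius3
import Cfsg.Agent.Lib.Transfer.Basic
import Cfsg.Agent.Lib.PGroup.Basic

/-!
# Itô: a product of two abelian subgroups has a nontrivial normal subgroup in a factor
-/

set_option autoImplicit false

namespace Cfsg.Agent.Lib.Prod

open Subgroup
open scoped commutatorElement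

variable {G : Type*} [Group G] [Finite G]

/-- Order of `A ⊓ (V ⊔ B)` in a factorization `G = A B` with `A ⊓ B = 1 = V ⊓ B`. -/
theorem card_inf_sup_of_mul {A B V : Subgroup G} [V.Normal]
    (hAB : ∀ g : G, ∃ a ∈ A, ∃ b ∈ B, g = a * b) (hd : A ⊓ B = ⊥) (hVB : V ⊓ B = ⊥) :
    Nat.card (A ⊓ (V ⊔ B) : Subgroup G) = Nat.card V := by
  have hX : ∀ g : G, ∃ a ∈ A, ∃ y ∈ V ⊔ B, g = a * y := fun g => by
    obtain ⟨a, ha, b, hb, h⟩ := hAB g
    exact ⟨a, ha, b, mem_sup_right hb, h⟩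
  have h1 := Core.relIndex_eq_index_of_mul hX
  have h2 := Core.relIndex_eq_index_of_mul hAB
  have h3 := Cfsg.Agent.Lib.PGroup.card_inf_mul_relIndex A (V ⊔ B)
  have h4 := Cfsg.Agent.Lib.PGroup.card_inf_mul_relIndex A B
  rw [hd, Subgroup.card_bot, one_mul, h2] at h4
  rw [h1, h4] at h3
  have h5 : Nat.card (V ⊔ B : Subgroup G) = Nat.card V * Nat.card B := by
    have hfac : ∀ g : (V ⊔ B : Subgroup G), ∃ v ∈ V.subgroupOf (V ⊔ B), ∃ b ∈ B.subgroupOf (V ⊔ B), g = v * b := by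
      rintro ⟨g, hg⟩
      obtain ⟨v, hv, b, hb, rfl⟩ := Core.exists_mul_of_mem_sup_normal_left hg
      exact ⟨⟨v, mem_sup_left hv⟩, by simpa [mem_subgroupOf] using hv, ⟨b, mem_sup_right hb⟩,
        by simpa [mem_subgroupOf] using hb, rfl⟩
    have h7 := Core.card_mul_card_of_mul hfac
    have h8 : V.subgroupOf (V ⊔ B) ⊓ B.subgroupOf (V ⊔ B) = ⊥ := by
      rw [eq_bot_iff]
      rintro ⟨x, hx⟩ ⟨h1, h2⟩
      have h3 : x ∈ V ⊓ B := ⟨mem_subgroupOf.mp h1, mem_subgroupOf.mp h2⟩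
      rw [hVB, mem_bot] at h3
      rw [mem_bot]
      exact Subtype.ext h3
    rw [h8, Subgroup.card_bot, mul_one] at h7
    have h9 : Nat.card (V.subgroupOf (V ⊔ B)) = Nat.card V :=
      Nat.card_congr (subgroupOfEquivOfLe (le_sup_left)).toEquiv
    have h10 : Nat.card (B.subgroupOf (V ⊔ B)) = Nat.card B :=
      Nat.card_congr (subgroupOfEquivOfLe (le_sup_right)).toEquiv
    rw [h9, h10] at h7
    exact h7.symm
  rw [h5] at h3
  exact Nat.eq_of_mul_eq_mul_right Nat.card_pos h3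

/-- The image of `A` modulo a normal subgroup containing the `r`-elements of `A` has order prime
to `r`. -/
theorem not_dvd_card_map_of_pelements {r : ℕ} (hr : r.Prime) {C A : Subgroup G} [C.Normal]
    (h : ∀ a ∈ A, (∃ k, a ^ r ^ k = 1) → a ∈ C) :
    ¬ r ∣ Nat.card (A.map (QuotientGroup.mk' C)) := by
  intro hdvd
  haveI := Fact.mk hr
  obtain ⟨x, hxo⟩ := exists_prime_orderOf_dvd_card' r hdvd
  have hxo' : orderOf (x : G ⧸ C) = r := by rw [Subgroup.orderOf_coe]; exact hxo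
  obtain ⟨a, ha, hax⟩ := x.2
  rw [← hax] at hxo'
  obtain ⟨u, w, huw, -, hu, hw, huz, -⟩ := Cfsg.Agent.Lib.Transfer.exists_parts hr a
  have huA : u ∈ A := (zpowers_le.mpr ha) huz
  have hu1 : QuotientGroup.mk' C u = 1 := by
    rw [QuotientGroup.mk'_apply, QuotientGroup.eq_one_iff]
    exact h u huA hu
  have h1 : QuotientGroup.mk' C a = QuotientGroup.mk' C w := by
    rw [huw, map_mul, hu1, one_mul]
  have h2 : orderOf (QuotientGroup.mk' C a) ∣ orderOf w := by
    rw [h1]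
    exact orderOf_map_dvd _ _
  rw [hxo'] at h2
  have h3 := Nat.Coprime.eq_one_of_dvd hw.symm h2
  exact hr.one_lt.ne' h3

/-- `G / C` has order prime to `r` if `C` contains the `r`-elements of `A` and `B`, `G = A B`. -/
theorem not_dvd_card_quotient_of_pelements {r : ℕ} (hr : r.Prime) {C A B : Subgroup G} [C.Normal]
    (hAB : ∀ g : G, ∃ a ∈ A, ∃ b ∈ B, g = a * b)
    (hA : ∀ a ∈ A, (∃ k, a ^ r ^ k = 1) → a ∈ C) (hB : ∀ a ∈ B, (∃ k, a ^ r ^ k = 1) → a ∈ C) :
    ¬ r ∣ Nat.card (G ⧸ C) := by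
  intro hdvd
  have hfac : ∀ g : G ⧸ C, ∃ x ∈ A.map (QuotientGroup.mk' C), ∃ y ∈ B.map (QuotientGroup.mk' C),
      g = x * y := by
    intro g
    obtain ⟨g, rfl⟩ := QuotientGroup.mk'_surjective C g
    obtain ⟨a, ha, b, hb, rfl⟩ := hAB g
    exact ⟨_, mem_map_of_mem _ ha, _, mem_map_of_mem _ hb, map_mul _ _ _⟩
  have h := Core.card_mul_card_of_mul hfac
  have h1 : r ∣ Nat.card (A.map (QuotientGroup.mk' C)) * Nat.card (B.map (QuotientGroup.mk' C)) := by
    rw [h]
    exact dvd_mul_of_dvd_left hdvd _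
  rcases (Nat.Prime.dvd_mul hr).mp h1 with h2 | h2
  · exact not_dvd_card_map_of_pelements hr hA h2
  · exact not_dvd_card_map_of_pelements hr hB h2

/-- **Itô**: a nontrivial finite group that is the product of two abelian subgroups has a
nontrivial normal subgroup contained in one of them. -/
theorem ito_normal [Nontrivial G] (A B : Subgroup G) [hA : IsMulCommutative A]
    [hB : IsMulCommutative B] (hAB : ∀ g : G, ∃ a ∈ A, ∃ b ∈ B, g = a * b) :
    ∃ N : Subgroup G, N.Normal ∧ N ≠ ⊥ ∧ (N ≤ A ∨ N ≤ B) := by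
  classical
  by_contra hcon
  have hconA : ∀ N : Subgroup G, N.Normal → N ≠ ⊥ → ¬ N ≤ A := fun N hN h1 h2 =>
    hcon ⟨N, hN, h1, Or.inl h2⟩
  have hconB : ∀ N : Subgroup G, N.Normal → N ≠ ⊥ → ¬ N ≤ B := fun N hN h1 h2 =>
    hcon ⟨N, hN, h1, Or.inr h2⟩
  have hAc : ∀ x ∈ A, ∀ y ∈ A, x * y = y * x := fun x hx y hy =>
    congrArg Subtype.val (hA.is_comm.comm ⟨x, hx⟩ ⟨y, hy⟩)
  have hBc : ∀ x ∈ B, ∀ y ∈ B, x * y = y * x := fun x hx y hy =>
    congrArg Subtype.val (hB.is_comm.comm ⟨x, hx⟩ ⟨y, hy⟩)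
  have hBA : ∀ g : G, ∃ b ∈ B, ∃ a ∈ A, g = b * a := ito_fac' hAB
  -- central elements
  have hZb : ∀ b ∈ B, (∀ a ∈ A, b * a = a * b) → b ∈ center G := by
    intro b hb h
    rw [mem_center_iff]
    intro g
    obtain ⟨a', ha', b', hb', rfl⟩ := hAB g
    have h1 := h a' ha'
    have h2 := hBc b hb b' hb'
    calc a' * b' * b = a' * (b' * b) := by group
      _ = a' * (b * b') := by rw [h2]
      _ = (a' * b) * b' := by group
      _ = (b * a') * b' := by
          rw [h1]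
      _ = b * (a' * b') := by group
  have hZa : ∀ a ∈ A, (∀ b ∈ B, a * b = b * a) → a ∈ center G := by
    intro a ha h
    rw [mem_center_iff]
    intro g
    obtain ⟨a', ha', b', hb', rfl⟩ := hAB g
    have h1 := h b' hb'
    have h2 := hAc a ha a' ha'
    calc a' * b' * a = a' * (b' * a) := by group
      _ = a' * (a * b') := by rw [h1]
      _ = (a' * a) * b' := by group
      _ = (a * a') * b' := by rw [h2]
      _ = a * (a' * b') := by group
  have hZn : ∀ N : Subgroup G, N ≤ center G → N.Normal := by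
    intro N hN
    refine ⟨fun n hn g => ?_⟩
    have h1 := mem_center_iff.mp (hN hn) g
    rw [h1, mul_assoc, mul_inv_cancel, mul_one]
    exact hn
  have hZA : center G ⊓ A = ⊥ := by
    by_contra h
    exact hconA _ (hZn _ inf_le_left) h inf_le_right
  have hZB : center G ⊓ B = ⊥ := by
    by_contra h
    exact hconB _ (hZn _ inf_le_left) h inf_le_right
  have hZ : center G = ⊥ := by
    rw [eq_bot_iff]
    intro z hz
    have hzc := mem_center_iff.mp hz
    obtain ⟨a, ha, b, hb, rfl⟩ := hAB z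
    have hbZ : b ∈ center G := by
      apply hZb b hb
      intro x hx
      have h1 := hzc x
      have h2 := hAc a ha x hx
      have h3 : a * (x * b) = a * (b * x) := by
        calc a * (x * b) = (a * x) * b := by group
          _ = (x * a) * b := by rw [h2]
          _ = x * (a * b) := by group
          _ = a * b * x := h1
          _ = a * (b * x) := by group
      exact (mul_left_cancel h3).symm
    have haZ : a ∈ center G := by
      have : a = (a * b) * b⁻¹ := by group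
      rw [this]
      exact mul_mem hz (inv_mem hbZ)
    have h1 : a ∈ center G ⊓ A := ⟨haZ, ha⟩
    have h2 : b ∈ center G ⊓ B := ⟨hbZ, hb⟩
    rw [hZA, mem_bot] at h1
    rw [hZB, mem_bot] at h2
    rw [h1, h2, one_mul, mem_bot]
  have hd : A ⊓ B = ⊥ := by
    rw [eq_bot_iff, ← hZ]
    rintro x ⟨hxA, hxB⟩
    exact hZb x hxB (fun a ha => hAc x hxA a ha)
  -- the commutator subgroup
  have hD2 : derivedSeries G 2 = ⊥ := derivedSeries_two_eq_bot_of_mul A B hAB
  haveI hsol : Group.IsSolvable G := ⟨⟨2, hD2⟩⟩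
  set D : Subgroup G := commutator G with hDdef
  have hD1 : D ≠ ⊥ := by
    intro h
    have hcomm : ∀ x y : G, x * y = y * x := by
      intro x y
      have := commutator_mem_commutator (mem_top x) (mem_top y)
      rw [← _root_.commutator_def, ← hDdef, h, mem_bot] at this
      exact commutatorElement_eq_one_iff_mul_comm.mp this
    have htop : center G = ⊤ := by
      rw [eq_top_iff]
      intro x _
      exact mem_center_iff.mpr (fun g => hcomm g x)
    rw [hZ] at htop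
    exact bot_ne_top htop
  have hDc : ∀ x ∈ D, ∀ y ∈ D, x * y = y * x := by
    intro x hx y hy
    have := commutator_mem_commutator hx hy
    have h2 : ⁅D, D⁆ = ⊥ := hD2
    rw [h2, mem_bot] at this
    exact commutatorElement_eq_one_iff_mul_comm.mp this
  have hcomm : ∀ x y : G, x * y * x⁻¹ * y⁻¹ ∈ D := by
    intro x y
    have := commutator_mem_commutator (mem_top x) (mem_top y)
    rw [← _root_.commutator_def, ← hDdef] at this
    exact this
  -- a minimal normal subgroup inside `D`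
  obtain ⟨V, hVn, hV1, hVD, hVmin⟩ := Core.exists_minimal_normal_le (K := D) inferInstance hD1
  obtain ⟨-, r, hr, hVr⟩ := Core.minimal_normal_elementary V hV1 hVmin
  haveI := Fact.mk hr
  -- centralizers of single elements in `V`
  have hE : ∀ g : G, (∀ v ∈ V, g * v = v * g) ∨ (∀ v ∈ V, g * v = v * g → v = 1) := by
    intro g
    have hEn : (V ⊓ centralizer ({g} : Set G)).Normal := by
      refine ⟨fun x hx h => ⟨hVn.conj_mem x hx.1 h, ?_⟩⟩
      show h * x * h⁻¹ ∈ centralizer ({g} : Set G)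
      rw [mem_centralizer_singleton_iff]
      have hxg : x * g = g * x := mem_centralizer_singleton_iff.mp hx.2
      have hc : h⁻¹ * g * (h⁻¹)⁻¹ * g⁻¹ ∈ D := hcomm h⁻¹ g
      have hxc := hDc x (hVD hx.1) _ hc
      calc h * x * h⁻¹ * g = h * (x * (h⁻¹ * g * (h⁻¹)⁻¹ * g⁻¹) * g) * h⁻¹ := by group
        _ = h * ((h⁻¹ * g * (h⁻¹)⁻¹ * g⁻¹) * x * g) * h⁻¹ := by rw [hxc]
        _ = h * ((h⁻¹ * g * (h⁻¹)⁻¹ * g⁻¹) * (x * g)) * h⁻¹ := by group
        _ = h * ((h⁻¹ * g * (h⁻¹)⁻¹ * g⁻¹) * (g * x)) * h⁻¹ := by rw [hxg]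
        _ = g * (h * x * h⁻¹) := by group
    rcases hVmin _ hEn inf_le_left with h | h
    · right
      intro v hv hvg
      have : v ∈ V ⊓ centralizer ({g} : Set G) := ⟨hv, mem_centralizer_singleton_iff.mpr hvg.symm⟩
      rw [h, mem_bot] at this
      exact this
    · left
      intro v hv
      have : v ∈ V ⊓ centralizer ({g} : Set G) := by rw [h]; exact hv
      exact (mem_centralizer_singleton_iff.mp this.2).symm
  -- `V` is an `r`-group
  have hVp : IsPGroup r V := by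
    intro ⟨v, hv⟩
    refine ⟨1, ?_⟩
    apply Subtype.ext
    simpa using hVr v hv
  obtain ⟨n, hVcard⟩ := IsPGroup.iff_card.mp hVp
  have hVcard1 : Nat.card V ≠ 1 := fun h => hV1 (eq_bot_of_card_eq V h)
  have hrV : r ∣ Nat.card V := by
    rw [hVcard]
    apply dvd_pow_self
    rintro rfl
    exact hVcard1 (by rw [hVcard, pow_zero])
  -- `r`-elements centralize `V`
  have hrc : ∀ g : G, (∃ k, g ^ r ^ k = 1) → ∀ v ∈ V, g * v = v * g := by
    intro g hg
    rcases hE g with h | h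
    · exact h
    · exfalso
      obtain ⟨k, hk⟩ := hg
      have hZp : IsPGroup r (zpowers g) := by
        rintro ⟨z, hz⟩
        obtain ⟨m, rfl⟩ := mem_zpowers_iff.mp hz
        refine ⟨k, ?_⟩
        apply Subtype.ext
        simp only [SubmonoidClass.mk_pow, OneMemClass.coe_one]
        rw [← zpow_natCast, ← zpow_mul, mul_comm, zpow_mul, zpow_natCast, hk, one_zpow]
      have hZN : zpowers g ≤ normalizer (V : Set G) := by
        rw [normalizer_eq_top V]
        exact le_top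
      obtain ⟨d, hd, hd1, hdfix⟩ := Hall.exists_fixed_of_pgroup_action hZp hZN hrV
      have h1 := hdfix g (mem_zpowers g)
      have h2 : g * d = d * g := by
        calc g * d = (g * d * g⁻¹) * g := by group
          _ = d * g := by rw [h1]
      exact hd1 (h d hd h2)
  -- `A` and `B` do not centralize `V`
  have hA_not : ∃ α ∈ A, ∃ v ∈ V, α * v ≠ v * α := by
    by_contra hno
    push_neg at hno
    apply hconA V hVn hV1
    intro v hv
    obtain ⟨a, ha, b, hb, rfl⟩ := hAB v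
    have hbZ : b ∈ center G := by
      apply hZb b hb
      intro x hx
      have h1 := hno x hx _ hv
      have h2 := hAc a ha x hx
      have h3 : a * (b * x) = a * (x * b) := by
        calc a * (b * x) = (a * b) * x := by group
          _ = x * (a * b) := h1.symm
          _ = (x * a) * b := by group
          _ = (a * x) * b := by rw [h2]
          _ = a * (x * b) := by group
      exact mul_left_cancel h3
    rw [hZ, mem_bot] at hbZ
    rw [hbZ, mul_one]
    exact ha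
  have hB_not : ∃ β ∈ B, ∃ v ∈ V, β * v ≠ v * β := by
    by_contra hno
    push_neg at hno
    apply hconB V hVn hV1
    intro v hv
    obtain ⟨b, hb, a, ha, rfl⟩ := hBA v
    have haZ : a ∈ center G := by
      apply hZa a ha
      intro x hx
      have h1 := hno x hx _ hv
      have h2 := hBc b hb x hx
      have h3 : b * (a * x) = b * (x * a) := by
        calc b * (a * x) = (b * a) * x := by group
          _ = x * (b * a) := h1.symm
          _ = (x * b) * a := by group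
          _ = (b * x) * a := by rw [h2]
          _ = b * (x * a) := by group
      exact mul_left_cancel h3
    rw [hZ, mem_bot] at haZ
    rw [haZ, mul_one]
    exact hb
  obtain ⟨α, hαA, v₀, hv₀, hαv₀⟩ := hA_not
  obtain ⟨β, hβB, v₁, hv₁, hβv₁⟩ := hB_not
  have hαE : ∀ v ∈ V, α * v = v * α → v = 1 := by
    rcases hE α with h | h
    · exact absurd (h v₀ hv₀) hαv₀
    · exact h
  have hβE : ∀ v ∈ V, β * v = v * β → v = 1 := by
    rcases hE β with h | h
    · exact absurd (h v₁ hv₁) hβv₁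
    · exact h
  have hVA : V ⊓ A = ⊥ := by
    rw [eq_bot_iff]
    rintro x ⟨hx, hxA⟩
    rw [mem_bot]
    exact hαE x hx (hAc α hαA x hxA)
  have hVB : V ⊓ B = ⊥ := by
    rw [eq_bot_iff]
    rintro x ⟨hx, hxB⟩
    rw [mem_bot]
    exact hβE x hx (hBc β hβB x hxB)
  -- the subgroups `A₁`, `B₁`
  set A₁ : Subgroup G := A ⊓ (V ⊔ B) with hA₁
  set B₁ : Subgroup G := B ⊓ (V ⊔ A) with hB₁
  have hA₁card : Nat.card A₁ = Nat.card V := card_inf_sup_of_mul hAB hd hVB
  have hB₁card : Nat.card B₁ = Nat.card V :=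
    card_inf_sup_of_mul hBA (by rw [inf_comm]; exact hd) hVA
  have hA₁r : ∀ a ∈ A₁, a ^ r ^ n = 1 := by
    intro a ha
    have h1 : (⟨a, ha⟩ : A₁) ^ Nat.card A₁ = 1 := pow_card_eq_one'
    rw [hA₁card, hVcard] at h1
    simpa using congrArg Subtype.val h1
  have hB₁r : ∀ a ∈ B₁, a ^ r ^ n = 1 := by
    intro a ha
    have h1 : (⟨a, ha⟩ : B₁) ^ Nat.card B₁ = 1 := pow_card_eq_one'
    rw [hB₁card, hVcard] at h1
    simpa using congrArg Subtype.val h1
  have hA₁c : ∀ a ∈ A₁, ∀ v ∈ V, a * v = v * a := fun a ha => hrc a ⟨n, hA₁r a ha⟩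
  have hB₁c : ∀ a ∈ B₁, ∀ v ∈ V, a * v = v * a := fun a ha => hrc a ⟨n, hB₁r a ha⟩
  -- the subgroup `T = V A₁ = V B₁`
  set T : Subgroup G := V ⊔ A₁ with hT
  have hT1 : ∀ t ∈ T, ∃ v ∈ V, ∃ a ∈ A₁, t = v * a := fun t ht =>
    Core.exists_mul_of_mem_sup_normal_left ht
  have hT2 : ∀ t ∈ T, ∃ v ∈ V, ∃ b ∈ B₁, t = v * b := by
    intro t ht
    obtain ⟨v, hv, a, ha, rfl⟩ := hT1 t ht
    obtain ⟨v₂, hv₂, b, hb, hab⟩ := Core.exists_mul_of_mem_sup_normal_left ha.2
    have hbm : b ∈ B₁ := by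
      refine ⟨hb, ?_⟩
      have : b = v₂⁻¹ * a := by rw [hab]; group
      rw [this]
      exact mul_mem (mem_sup_left (inv_mem hv₂)) (mem_sup_right ha.1)
    refine ⟨v * v₂, mul_mem hv hv₂, b, hbm, ?_⟩
    rw [hab, mul_assoc]
  have hVT : V ≤ T := le_sup_left
  have hA₁T : A₁ ≤ T := le_sup_right
  -- conjugation action on `T`
  have h7A : ∀ a ∈ A, ∀ t ∈ T, ∃ w ∈ V, a * t * a⁻¹ = w * t := by
    intro a ha t ht
    obtain ⟨v, hv, a₁, ha₁, rfl⟩ := hT1 t ht
    refine ⟨a * v * a⁻¹ * v⁻¹, mul_mem (hVn.conj_mem v hv a) (inv_mem hv), ?_⟩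
    have h1 := hAc a ha a₁ ha₁.1
    calc a * (v * a₁) * a⁻¹ = a * v * a⁻¹ * (a * a₁) * a⁻¹ := by group
      _ = a * v * a⁻¹ * (a₁ * a) * a⁻¹ := by rw [h1]
      _ = a * v * a⁻¹ * v⁻¹ * (v * a₁) := by group
  have h7B : ∀ b ∈ B, ∀ t ∈ T, ∃ w ∈ V, b * t * b⁻¹ = w * t := by
    intro a ha t ht
    obtain ⟨v, hv, a₁, ha₁, rfl⟩ := hT2 t ht
    refine ⟨a * v * a⁻¹ * v⁻¹, mul_mem (hVn.conj_mem v hv a) (inv_mem hv), ?_⟩
    have h1 := hBc a ha a₁ ha₁.1
    calc a * (v * a₁) * a⁻¹ = a * v * a⁻¹ * (a * a₁) * a⁻¹ := by group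
      _ = a * v * a⁻¹ * (a₁ * a) * a⁻¹ := by rw [h1]
      _ = a * v * a⁻¹ * v⁻¹ * (v * a₁) := by group
  have h7 : ∀ g : G, ∀ t ∈ T, ∃ w ∈ V, g * t * g⁻¹ = w * t := by
    intro g t ht
    obtain ⟨a, ha, b, hb, rfl⟩ := hAB g
    obtain ⟨w₁, hw₁, h1⟩ := h7B b hb t ht
    obtain ⟨w₂, hw₂, h2⟩ := h7A a ha t ht
    refine ⟨a * w₁ * a⁻¹ * w₂, mul_mem (hVn.conj_mem w₁ hw₁ a) hw₂, ?_⟩
    calc a * b * t * (a * b)⁻¹ = a * (b * t * b⁻¹) * a⁻¹ := by group
      _ = a * (w₁ * t) * a⁻¹ := by rw [h1]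
      _ = a * w₁ * a⁻¹ * (a * t * a⁻¹) := by group
      _ = a * w₁ * a⁻¹ * (w₂ * t) := by rw [h2]
      _ = a * w₁ * a⁻¹ * w₂ * t := by group
  haveI hTn : T.Normal := ⟨fun t ht g => by
    obtain ⟨w, hw, h⟩ := h7 g t ht
    rw [h]
    exact mul_mem (hVT hw) ht⟩
  set C : Subgroup G := centralizer (T : Set G) with hC
  haveI hCn : C.Normal := normal_centralizer
  have h8a : ∀ a ∈ A, (∃ k, a ^ r ^ k = 1) → a ∈ C := by
    intro a ha hk
    rw [hC, mem_centralizer_iff]
    intro t ht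
    obtain ⟨v, hv, a₁, ha₁, rfl⟩ := hT1 t ht
    have h1 := hrc a hk v hv
    have h2 := hAc a ha a₁ ha₁.1
    calc v * a₁ * a = v * (a₁ * a) := by group
      _ = v * (a * a₁) := by rw [h2]
      _ = (v * a) * a₁ := by group
      _ = (a * v) * a₁ := by rw [h1]
      _ = a * (v * a₁) := by group
  have h8b : ∀ a ∈ B, (∃ k, a ^ r ^ k = 1) → a ∈ C := by
    intro a ha hk
    rw [hC, mem_centralizer_iff]
    intro t ht
    obtain ⟨v, hv, a₁, ha₁, rfl⟩ := hT2 t ht
    have h1 := hrc a hk v hv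
    have h2 := hBc a ha a₁ ha₁.1
    calc v * a₁ * a = v * (a₁ * a) := by group
      _ = v * (a * a₁) := by rw [h2]
      _ = (v * a) * a₁ := by group
      _ = (a * v) * a₁ := by rw [h1]
      _ = a * (v * a₁) := by group
  have hΓ : ¬ r ∣ Nat.card (G ⧸ C) := not_dvd_card_quotient_of_pelements hr hAB h8a h8b
  -- the commutator subgroup centralizes `T`
  have hDC : ∀ c ∈ D, c ∈ C := by
    intro c hc
    have hcr : c ^ r ∈ C := by
      rw [hC, mem_centralizer_iff]
      intro t ht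
      obtain ⟨w, hw, h⟩ := h7 c t ht
      have hcw : ∀ k : ℕ, c ^ k * t * (c ^ k)⁻¹ = w ^ k * t := by
        intro k
        induction k with
        | zero => simp
        | succ k ih =>
          have h1 : c * w ^ k = w ^ k * c := hDc c hc _ (hVD (pow_mem hw k))
          calc c ^ (k + 1) * t * (c ^ (k + 1))⁻¹ = c * (c ^ k * t * (c ^ k)⁻¹) * c⁻¹ := by
                rw [pow_succ']; group
            _ = c * (w ^ k * t) * c⁻¹ := by rw [ih]
            _ = (c * w ^ k) * t * c⁻¹ := by group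
            _ = (w ^ k * c) * t * c⁻¹ := by rw [h1]
            _ = w ^ k * (c * t * c⁻¹) := by group
            _ = w ^ k * (w * t) := by rw [h]
            _ = w ^ (k + 1) * t := by rw [pow_succ]; group
      have h2 := hcw r
      rw [hVr w hw, one_mul] at h2
      calc t * c ^ r = (c ^ r * t * (c ^ r)⁻¹) * c ^ r := by rw [h2]
        _ = c ^ r * t := by group
    have h1 : (QuotientGroup.mk' C c) ^ r = 1 := by
      rw [← map_pow, QuotientGroup.mk'_apply, QuotientGroup.eq_one_iff]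
      exact hcr
    have h2 : orderOf (QuotientGroup.mk' C c) ∣ r := orderOf_dvd_of_pow_eq_one h1
    rcases (Nat.dvd_prime hr).mp h2 with h3 | h3
    · rw [orderOf_eq_one_iff, QuotientGroup.mk'_apply, QuotientGroup.eq_one_iff] at h3
      exact h3
    · exfalso
      apply hΓ
      rw [← h3]
      exact orderOf_dvd_natCard _
  -- `A₁` is normal
  have h10 : ∀ b ∈ B, ∀ y ∈ A₁, b * y * b⁻¹ ∈ A₁ := by
    intro b hb y hy
    obtain ⟨v, hv, a₂, ha₂, h⟩ := hT1 _ (hTn.conj_mem y (hA₁T hy) b)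
    have hc' : b⁻¹ * α * (b⁻¹)⁻¹ * α⁻¹ ∈ D := hcomm b⁻¹ α
    set c' := b⁻¹ * α * (b⁻¹)⁻¹ * α⁻¹ with hc'def
    have hc'C : c' ∈ C := hDC c' hc'
    have h1 : y * c' = c' * y := mem_centralizer_iff.mp hc'C y (hA₁T hy)
    have h2 : α * y = y * α := hAc α hαA y hy.1
    have hfix : α * (b * y * b⁻¹) * α⁻¹ = b * y * b⁻¹ := by
      have e1 : α * b = b * c' * α := by rw [hc'def]; group
      calc α * (b * y * b⁻¹) * α⁻¹ = (α * b) * y * (α * b)⁻¹ := by group
        _ = (b * c' * α) * y * (b * c' * α)⁻¹ := by rw [e1]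
        _ = b * c' * (α * y) * α⁻¹ * c'⁻¹ * b⁻¹ := by group
        _ = b * c' * (y * α) * α⁻¹ * c'⁻¹ * b⁻¹ := by rw [h2]
        _ = b * (c' * y) * c'⁻¹ * b⁻¹ := by group
        _ = b * (y * c') * c'⁻¹ * b⁻¹ := by rw [h1]
        _ = b * y * b⁻¹ := by group
    rw [h] at hfix
    have h3 : α * a₂ = a₂ * α := hAc α hαA a₂ ha₂.1
    have h5 : α * a₂ * α⁻¹ = a₂ := by rw [h3]; group
    have h4 : α * v * α⁻¹ * a₂ = v * a₂ := by
      calc α * v * α⁻¹ * a₂ = α * v * α⁻¹ * (α * a₂ * α⁻¹) := by rw [h5]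
        _ = α * (v * a₂) * α⁻¹ := by group
        _ = v * a₂ := hfix
    have h6 : α * v * α⁻¹ = v := mul_right_cancel h4
    have h7' : α * v = v * α := by
      calc α * v = (α * v * α⁻¹) * α := by group
        _ = v * α := by rw [h6]
    have hv1 := hαE v hv h7'
    rw [h, hv1, one_mul]
    exact ha₂
  have hA₁n : A₁.Normal := ⟨fun y hy g => by
    obtain ⟨a, ha, b, hb, rfl⟩ := hAB g
    have h1 := h10 b hb y hy
    have h2 := hAc a ha _ h1.1
    have : a * b * y * (a * b)⁻¹ = b * y * b⁻¹ := by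
      calc a * b * y * (a * b)⁻¹ = (a * (b * y * b⁻¹)) * a⁻¹ := by group
        _ = ((b * y * b⁻¹) * a) * a⁻¹ := by rw [h2]
        _ = b * y * b⁻¹ := by group
    rw [this]
    exact h1⟩
  have hA₁ne : A₁ ≠ ⊥ := by
    intro h
    apply hVcard1
    rw [← hA₁card, h, Subgroup.card_bot]
  exact hconA A₁ hA₁n hA₁ne inf_le_left

end Cfsg.Agent.Lib.Prod
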